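import Cfsg.Agent.PGroup.Extraspecial
import Cfsg.Agent.PGroup.Critical
import Cfsg.Agent.S3761
set_option autoImplicit false
set_option linter.style.haveILetI false

/-!
The structure of p-groups of symplectic type.
-/

namespace CfsgLib.SymplecticHall

open CfsgLib.PGroup
open scoped commutatorElement Pointwise

variable {G : Type*} [Group G]

/-- Every characteristic abelian subgroup is cyclic. -/
def Sym (G : Type*) [Group G] : Prop := ∀ A : Subgroup G, A.Characteristic → IsMulCommutative A → IsCyclic A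

/-- The centre of a subgroup, inside the big group. -/
def centerIn (X : Subgroup G) : Subgroup G := X ⊓ Subgroup.centralizer (X : Set G)

theorem characteristic_of_forall (A : Subgroup G) (h : ∀ (φ : G ≃* G), ∀ x ∈ A, φ x ∈ A) : A.Characteristic := by
  rw [Subgroup.characteristic_iff_map_le]
  rintro φ _ ⟨x, hx, rfl⟩
  exact h φ x hx

theorem apply_mem {A : Subgroup G} (hA : A.Characteristic) (φ : G ≃* G) {x : G} (hx : x ∈ A) : φ x ∈ A :=
  Subgroup.characteristic_iff_map_le.1 hA φ ⟨x, hx, rfl⟩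

theorem sym_subgroup (hG : Sym G) (X : Subgroup G) (hX : X.Characteristic) : Sym X := by
  intro A hA hab
  have hc : (A.map X.subtype).Characteristic := by
    refine characteristic_of_forall _ fun φ x hx => ?_
    obtain ⟨y, hy, rfl⟩ := hx
    let ψ : X ≃* X :=
      { toFun := fun z => ⟨φ z, apply_mem hX φ z.2⟩
        invFun := fun z => ⟨φ.symm z, apply_mem hX φ.symm z.2⟩
        left_inv := fun z => Subtype.ext (φ.symm_apply_apply _)
        right_inv := fun z => Subtype.ext (φ.apply_symm_apply _)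
        map_mul' := fun z w => Subtype.ext (map_mul φ _ _) }
    exact ⟨ψ y, apply_mem hA ψ hy, rfl⟩
  haveI := hab
  have hab' : IsMulCommutative (A.map X.subtype) := inferInstance
  haveI := hG _ hc hab'
  exact isCyclic_of_injective (A.equivMapOfInjective X.subtype X.subtype_injective).toMonoidHom
    (A.equivMapOfInjective X.subtype X.subtype_injective).injective

theorem centralizer_apply_mem {A : Subgroup G} (hA : A.Characteristic) (φ : G ≃* G) {x : G}
    (hx : x ∈ Subgroup.centralizer (A : Set G)) : φ x ∈ Subgroup.centralizer (A : Set G) := by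
  rw [Subgroup.mem_centralizer_iff] at hx ⊢
  intro y hy
  have h := congrArg φ (hx (φ.symm y) (apply_mem hA φ.symm hy))
  simpa using h

theorem exists_generator (Z : Subgroup G) [IsCyclic Z] : ∃ z ∈ Z, Z = Subgroup.zpowers z := by
  obtain ⟨⟨a, haU⟩, haG⟩ := IsCyclic.exists_generator (α := Z)
  exact ⟨a, haU, le_antisymm (fun x hx => by
    obtain ⟨i, hi⟩ := haG ⟨x, hx⟩; exact ⟨i, congrArg Subtype.val hi⟩) (Subgroup.zpowers_le.2 haU)⟩

/-- The elements of a subgroup killed by `p`. -/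
def kill (p : ℕ) (Z : Subgroup G) [IsMulCommutative Z] : Subgroup G where
  carrier := {x | x ∈ Z ∧ x ^ p = 1}
  one_mem' := ⟨one_mem _, one_pow p⟩
  mul_mem' {a b} ha hb := ⟨mul_mem ha.1 hb.1, by
    have : Commute a b := congrArg Subtype.val (mul_comm' (⟨a, ha.1⟩ : Z) ⟨b, hb.1⟩)
    rw [this.mul_pow, ha.2, hb.2, one_mul]⟩
  inv_mem' {a} ha := ⟨inv_mem ha.1, by rw [inv_pow, ha.2, inv_one]⟩

theorem mem_kill {p : ℕ} {Z : Subgroup G} [IsMulCommutative Z] {x : G} :
    x ∈ kill p Z ↔ x ∈ Z ∧ x ^ p = 1 := Iff.rfl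

theorem card_kill [Finite G] {p : ℕ} [hp : Fact p.Prime] {Z : Subgroup G} [IsMulCommutative Z]
    (hc : IsCyclic Z) (hG : IsPGroup p G) (hne : Z ≠ ⊥) : Nat.card (kill p Z) = p := by
  letI : CommGroup Z := { (inferInstance : Group Z) with mul_comm := mul_comm' }
  have e : kill p Z ≃ (powMonoidHom p : Z →* Z).ker :=
    { toFun := fun x => ⟨⟨x.1, x.2.1⟩, Subtype.ext x.2.2⟩
      invFun := fun x => ⟨x.1.1, x.1.2, congrArg Subtype.val x.2⟩
      left_inv := fun x => rfl
      right_inv := fun x => rfl }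
  rw [Nat.card_congr e, IsCyclic.card_powMonoidHom_ker]
  obtain ⟨k, hk⟩ := IsPGroup.iff_card.1 (hG.to_subgroup Z)
  have hk0 : k ≠ 0 := fun h => hne (Subgroup.eq_bot_of_card_le Z (by rw [hk, h]; simp))
  rw [hk, Nat.gcd_eq_right (dvd_pow_self p hk0)]

/-- In class two with exponent `p` modulo a cyclic centre of order at least `p ^ 2`,
every `p`-th power is the power of a central element. -/
theorem pow_eq_central {Y : Type*} [Group Y] [Finite Y] {p : ℕ} [hp : Fact p.Prime] (hY : IsPGroup p Y)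
    (hsym : Sym Y) (hpow : ∀ x : Y, x ^ p ∈ Subgroup.center Y)
    (h2 : ∀ a b : Y, ⁅a, b⁆ ∈ Subgroup.center Y) (hcard : p ^ 2 ≤ Nat.card (Subgroup.center Y)) :
    ∀ x : Y, ∃ w ∈ Subgroup.center Y, x ^ p = w ^ p := by
  classical
  haveI : IsCyclic (Subgroup.center Y) := hsym _ inferInstance inferInstance
  obtain ⟨z, hzZ, hZ⟩ := exists_generator (Subgroup.center Y)
  obtain ⟨k, hk⟩ := IsPGroup.iff_card.1 (hY.to_subgroup (Subgroup.center Y))
  have hz : orderOf z = p ^ k := by rw [← Nat.card_zpowers, ← hZ, hk]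
  have hp2 := hp.out.two_le
  rw [hk] at hcard
  have hk2 : 2 ≤ k := (Nat.pow_le_pow_iff_right (by omega)).1 hcard
  have ziff : ∀ i j : ℤ, z ^ i = z ^ j ↔ ((p : ℤ) ^ k) ∣ j - i := fun i j => by
    rw [zpow_eq_zpow_iff_modEq, hz, Int.modEq_iff_dvd, Nat.cast_pow]
  have hcp : ∀ a b : Y, ⁅a, b⁆ ^ p = 1 := fun a b => by
    rw [← commutator_pow_left h2, commutatorElement_eq_one_iff_mul_comm]
    exact (Subgroup.mem_center_iff.1 (hpow a) b).symm
  -- central elements killed by `p` are `p`-th powers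
  have hkp : ∀ c ∈ Subgroup.center Y, c ^ p = 1 → ∃ l : ℤ, c = z ^ ((p : ℤ) * l) := by
    intro c hc hc1
    rw [hZ] at hc
    obtain ⟨i, rfl⟩ := Subgroup.mem_zpowers_iff.1 hc
    rw [← zpow_natCast, ← zpow_mul, ← zpow_zero z, ziff, zero_sub, dvd_neg] at hc1
    obtain ⟨m, hm⟩ := hc1
    have hpz : (p : ℤ) ≠ 0 := by exact_mod_cast hp.out.ne_zero
    have : i = (p : ℤ) * ((p : ℤ) ^ (k - 2) * m) := by
      apply mul_right_cancel₀ hpz
      rw [hm, show k = k - 2 + 1 + 1 by omega, pow_succ, pow_succ, show k - 2 + 1 + 1 - 2 = k - 2 by omega]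
      ring
    exact ⟨_, by rw [← this]⟩
  have hex : ∀ x : Y, ∃ j : ℤ, x ^ p = z ^ j := fun x => by
    have := hpow x
    rw [hZ, Subgroup.mem_zpowers_iff] at this
    obtain ⟨j, hj⟩ := this
    exact ⟨j, hj.symm⟩
  choose jf hjf using hex
  have hcast : ∀ i j : ℤ, z ^ i = z ^ j → (i : ZMod p) = (j : ZMod p) := fun i j h => by
    rw [ZMod.intCast_eq_intCast_iff_dvd_sub]
    exact (dvd_pow_self _ (by omega)).trans ((ziff i j).1 h)
  have hmul : ∀ x y, (jf (x * y) : ZMod p) = (jf x : ZMod p) + (jf y : ZMod p) := by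
    intro x y
    obtain ⟨l, hl⟩ := hkp _ (h2 y x) (hcp y x)
    have h := hcast (jf (x * y)) (jf x + jf y + (p : ℤ) * l * (p.choose 2 : ℕ)) (by
      rw [← hjf, mul_pow_central (h2 y x) p, hjf, hjf, hl, zpow_add, zpow_add, ← zpow_natCast (z ^ _),
        ← zpow_mul])
    rw [h]
    push_cast
    simp
  let ψ : Y →* Multiplicative (ZMod p) := MonoidHom.mk' (fun x => Multiplicative.ofAdd (jf x : ZMod p))
    fun x y => by simp only [hmul]; rfl
  have hK : ∀ x, x ∈ ψ.ker ↔ ∃ w ∈ Subgroup.center Y, x ^ p = w ^ p := by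
    intro x
    rw [MonoidHom.mem_ker]
    change Multiplicative.ofAdd (jf x : ZMod p) = 1 ↔ _
    rw [ofAdd_eq_one, ZMod.intCast_zmod_eq_zero_iff_dvd]
    constructor
    · rintro ⟨l, hl⟩
      exact ⟨z ^ l, zpow_mem hzZ l, by rw [hjf, hl, ← zpow_natCast, ← zpow_mul, mul_comm]⟩
    · rintro ⟨w, hw, e⟩
      rw [hZ] at hw
      obtain ⟨i, rfl⟩ := Subgroup.mem_zpowers_iff.1 hw
      have h := hcast (jf x) (i * p) (by rw [← hjf, e, zpow_mul, zpow_natCast])
      rw [← ZMod.intCast_zmod_eq_zero_iff_dvd, h]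
      simp
  by_contra hcon
  push Not at hcon
  obtain ⟨x₀, hx₀⟩ := hcon
  have hx₀K : x₀ ∉ ψ.ker := fun h => by
    obtain ⟨w, hw, e⟩ := (hK x₀).1 h
    exact hx₀ w hw e
  have hKZ : Subgroup.center Y ≤ ψ.ker := fun w hw => (hK w).2 ⟨w, hw, rfl⟩
  have hchar : ψ.ker.Characteristic := characteristic_of_forall _ fun φ x hx => by
    obtain ⟨w, hw, e⟩ := (hK x).1 hx
    exact (hK _).2 ⟨φ w, apply_mem inferInstance φ hw, by rw [← map_pow, ← map_pow, e]⟩
  -- the radical
  set W := centerIn ψ.ker with hW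
  have hWc : W.Characteristic := characteristic_of_forall _ fun φ x hx =>
    ⟨apply_mem hchar φ hx.1, centralizer_apply_mem hchar φ hx.2⟩
  haveI hWab : IsMulCommutative W :=
    ⟨⟨fun a b => Subtype.ext (Subgroup.mem_centralizer_iff.1 b.2.2 a.1 a.2.1)⟩⟩
  haveI hWcyc : IsCyclic W := hsym W hWc hWab
  have hne : Subgroup.center Y ≠ ⊥ := by
    intro h
    rw [h, Subgroup.card_bot] at hk
    have : 1 < p ^ k := Nat.one_lt_pow (by omega) hp2
    omega
  have hkc : Nat.card (kill p (Subgroup.center Y)) = p := card_kill inferInstance hY hne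
  have hidx : ∀ x ∈ (⊤ : Subgroup Y), (Subgroup.centralizer ({x} : Set Y)).index ≤ p := fun x _ =>
    (index_centralizer_le (Z := kill p (Subgroup.center Y)) fun g => mem_kill.2 ⟨h2 g x, hcp g x⟩).trans
      hkc.le
  have hm := card_centralizer_mul_mono (hY.to_subgroup ψ.ker) (fun x hx => hidx x trivial) hKZ
  have hCZ : Subgroup.centralizer (Subgroup.center Y : Set Y) = ⊤ := by
    rw [Subgroup.centralizer_eq_top_iff_subset]
  rw [hCZ, Subgroup.card_top] at hm
  have hidxK : ψ.ker.index ≤ p := by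
    rw [Subgroup.index_ker]
    exact (Subgroup.card_le_card_group _).trans (by simp)
  have hK1 : ψ.ker.index ≠ 1 := fun h => hx₀K (by rw [Subgroup.index_eq_one.1 h]; trivial)
  obtain ⟨v, hv, hvZ⟩ : ∃ v ∈ Subgroup.centralizer (ψ.ker : Set Y), v ∉ Subgroup.center Y := by
    by_contra hno
    push Not at hno
    have h1 : Nat.card (Subgroup.centralizer (ψ.ker : Set Y)) ≤ Nat.card (Subgroup.center Y) :=
      Subgroup.card_le_of_le hno
    have h3 := Subgroup.card_mul_index ψ.ker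
    have h4 : 0 < Nat.card (Subgroup.center Y) := Nat.card_pos
    have h5 : 0 < Nat.card ψ.ker := Nat.card_pos
    have h6 : 0 < ψ.ker.index := Nat.pos_of_ne_zero Subgroup.index_ne_zero_of_finite
    have h7 : 2 * Nat.card ψ.ker ≤ Nat.card Y := by
      rw [← h3, mul_comm]
      exact Nat.mul_le_mul_left _ (by omega)
    nlinarith [Nat.mul_le_mul_right (Nat.card ψ.ker) h1, Nat.mul_le_mul_right (Nat.card (Subgroup.center Y)) h7,
      Nat.mul_pos h4 h5]
  have hvK : v ∈ ψ.ker := by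
    by_contra hvK
    apply hvZ
    rw [Subgroup.mem_center_iff]
    intro g
    have hco : Nat.Prime ψ.ker.index := by
      obtain ⟨j, hj⟩ := hY.index ψ.ker
      rcases j with _ | _ | j
      · exact absurd (by rw [hj, pow_zero]) hK1
      · rw [hj, pow_one]; exact hp.out
      · exfalso
        have : p ^ 2 ≤ ψ.ker.index := hj ▸ Nat.pow_le_pow_right (by omega) (by omega)
        nlinarith
    have htop : ψ.ker ⊔ Subgroup.zpowers v = ⊤ := by
      have hd := Subgroup.index_dvd_of_le (le_sup_left : ψ.ker ≤ ψ.ker ⊔ Subgroup.zpowers v)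
      rcases (Nat.dvd_prime hco).1 hd with h | h
      · exact Subgroup.index_eq_one.1 h
      · exfalso
        have hle : ψ.ker ⊔ Subgroup.zpowers v ≤ ψ.ker := by
          refine le_of_eq (Subgroup.eq_of_le_of_card_ge le_sup_left ?_).symm
          have e1 := Subgroup.card_mul_index ψ.ker
          have e2 := Subgroup.card_mul_index (ψ.ker ⊔ Subgroup.zpowers v)
          rw [h, ← e1] at e2
          exact (Nat.eq_of_mul_eq_mul_right hco.pos e2).le
        exact hvK (hle (Subgroup.mem_sup_right (Subgroup.mem_zpowers v)))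
    have hle : (⊤ : Subgroup Y) ≤ Subgroup.centralizer ({v} : Set Y) := by
      rw [← htop, sup_le_iff]
      refine ⟨fun x hx => Subgroup.mem_centralizer_singleton_iff.2 ?_, Subgroup.zpowers_le.2
        (Subgroup.mem_centralizer_singleton_iff.2 rfl)⟩
      exact Subgroup.mem_centralizer_iff.1 hv x hx
    exact Subgroup.mem_centralizer_singleton_iff.1 (hle (Subgroup.mem_top g))
  -- the centre of the kernel is cyclic, so its generator has a large power
  obtain ⟨w, hw, hWw⟩ := exists_generator W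
  obtain ⟨w', hw', e⟩ := (hK w).1 hw.1
  obtain ⟨kW, hkW⟩ := IsPGroup.iff_card.1 (hY.to_subgroup W)
  have hWZ : Subgroup.center Y ≤ W := fun c hc => ⟨hKZ hc, Subgroup.center_le_centralizer _ hc⟩
  have hlt : Subgroup.center Y < W := lt_of_le_of_ne hWZ fun e' => hvZ (e' ▸ ⟨hvK, hv⟩)
  have hwo : orderOf w = p ^ kW := by rw [← Nat.card_zpowers, ← hWw, hkW]
  have hlt' : p ^ k < p ^ kW := by
    rw [← hk, ← hkW]
    exact Set.Finite.card_lt_card (Set.toFinite _) hlt
  have hkk : k < kW := (Nat.pow_lt_pow_iff_right (by omega)).1 hlt'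
  have h7 : w ^ (p ^ k) = w' ^ (p ^ k) := by
    rw [show p ^ k = p * p ^ (k - 1) by rw [← pow_succ']; congr 1; omega, pow_mul, pow_mul, e]
  have h8 : w' ^ (p ^ k) = 1 := by
    rw [← hk]
    exact congrArg Subtype.val (pow_card_eq_one' (x := (⟨w', hw'⟩ : Subgroup.center Y)))
  rw [h8] at h7
  have := Nat.le_of_dvd (Nat.pow_pos hp.out.pos) (orderOf_dvd_of_pow_eq_one h7)
  rw [hwo] at this
  omega

variable [Finite G] {p : ℕ} [hp : Fact p.Prime]

/-- A normal subgroup of order `p` of a p-group is central. -/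
theorem central_of_card (hG : IsPGroup p G) {N : Subgroup G} [N.Normal] (h : Nat.card N = p) :
    N ≤ Subgroup.center G := by
  have hbot : (⊥ : Subgroup G) < N := bot_lt_iff_ne_bot.mpr fun hb => by
    rw [hb, Subgroup.card_bot] at h
    exact hp.out.one_lt.ne h
  obtain ⟨z, hz, hz1, hzc⟩ := exists_mem_central_mod hG hbot
  have hgen : Subgroup.zpowers z = N := by
    refine Subgroup.eq_of_le_of_card_ge (Subgroup.zpowers_le.mpr hz) ?_
    rw [h, Nat.card_zpowers]
    exact Nat.le_of_dvd (orderOf_pos z) (hG.dvd_orderOf fun h1 => hz1 (h1 ▸ one_mem _))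
  rw [← hgen]
  exact Subgroup.zpowers_le.mpr (Subgroup.mem_center_iff.mpr fun g =>
    (commutatorElement_eq_one_iff_mul_comm.mp (Subgroup.mem_bot.mp (hzc g))).symm)

theorem isExtraspecial_of (hG : IsPGroup p G) (hc : Nat.card (Subgroup.center G) = p)
    (h2 : ∀ a b : G, ⁅a, b⁆ ∈ Subgroup.center G) (hpow : ∀ x : G, x ^ p ∈ Subgroup.center G)
    (hne : Subgroup.center G ≠ ⊤) : Cfsg.IsExtraspecial p G := by
  have h1 : commutator G ≤ Subgroup.center G := by
    rw [commutator_eq_closure, Subgroup.closure_le]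
    rintro _ ⟨a, b, rfl⟩
    exact h2 a b
  have h3 : commutator G = Subgroup.center G := by
    refine Subgroup.eq_of_le_of_card_ge h1 ?_
    rw [hc]
    obtain ⟨j, hj⟩ := IsPGroup.iff_card.1 (hG.to_subgroup (commutator G))
    rcases j with _ | j
    · exfalso
      have hbot : commutator G = ⊥ := Subgroup.eq_bot_of_card_le _ (by rw [hj]; simp)
      apply hne
      rw [Subgroup.eq_top_iff']
      intro g
      refine Subgroup.mem_center_iff.2 fun x => ?_
      have : ⁅x, g⁆ ∈ commutator G := Subgroup.commutator_mem_commutator (Subgroup.mem_top x) (Subgroup.mem_top g)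
      rw [hbot, Subgroup.mem_bot] at this
      exact commutatorElement_eq_one_iff_mul_comm.1 this
    · rw [hj]; exact Nat.le_self_pow (by omega) p
  refine ⟨⟨hG, le_antisymm (frattini_le_of_elementary h2 hpow) ?_, h3⟩, hc⟩
  rw [← h3]
  exact commutator_le_frattini hG

/-- The extraspecial part. -/
theorem exists_split (hG : IsPGroup p G) (hsym : Sym G) (hnt : Nontrivial G) :
    ∃ C Z O E R : Subgroup G, Z ≤ R ∧ O ≤ Z ∧ Z.Characteristic ∧ O.Normal ∧ IsCyclic Z ∧ Nat.card O = p ∧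
      (∀ x, x ∈ O ↔ x ∈ Z ∧ x ^ p = 1) ∧ (∀ e ∈ E, ∀ r ∈ R, e * r = r * e) ∧ E ⊔ R = ⊤ ∧
      (E = ⊥ ∨ Cfsg.IsExtraspecial p E) ∧ (∀ e ∈ E, e ^ p ∈ O) ∧ (∀ e ∈ E, ∀ f ∈ E, ⁅e, f⁆ ∈ O) ∧
      Subgroup.centralizer (Z : Set G) ⊓ R = Z ∧ C = E ⊔ Z ∧ Subgroup.centralizer (E : Set G) ≤ R := by
  classical
  have hΓ : ∀ g : G, MulAut.conj g ∈ (⊤ : Subgroup (MulAut G)) := fun _ => Subgroup.mem_top _
  obtain ⟨C, hC⟩ := exists_critical hG ⊤ hΓ
  have hCc : C.Characteristic := characteristic_of_forall _ fun φ x hx => hC.invariant φ (Subgroup.mem_top _) x hx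
  set Z := Subgroup.centralizer (C : Set G) with hZdef
  have hZC : Z ≤ C := hC.centralizer_le
  have hZc : Z.Characteristic := characteristic_of_forall _ fun φ x hx => centralizer_apply_mem hCc φ hx
  haveI hZab : IsMulCommutative Z :=
    ⟨⟨fun a b => Subtype.ext (Subgroup.mem_centralizer_iff.1 b.2 a.1 (hZC a.2))⟩⟩
  haveI hZcyc : IsCyclic Z := hsym Z hZc hZab
  haveI := hZc
  have hZne : Z ≠ ⊥ := fun h => by
    have := hG.center_nontrivial
    obtain ⟨⟨c, hc⟩, hc1⟩ := exists_ne (1 : Subgroup.center G)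
    have : c ∈ Z := Subgroup.center_le_centralizer _ hc
    rw [h, Subgroup.mem_bot] at this
    exact hc1 (Subtype.ext this)
  set O := kill p Z with hOdef
  have hOcard : Nat.card O = p := card_kill hZcyc hG hZne
  haveI hOn : O.Normal := ⟨fun x hx g => mem_kill.2 ⟨Subgroup.Normal.conj_mem inferInstance x hx.1 g, by
    rw [conj_pow, hx.2]; simp⟩⟩
  have hOZ : O ≤ Z := fun x hx => hx.1
  have hOcen : O ≤ Subgroup.center G := central_of_card hG hOcard
  have hpZ : ∀ x ∈ C, x ^ p ∈ Z := hC.pow_mem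
  have hcomZ : ∀ x ∈ C, ∀ g, ⁅x, g⁆ ∈ Z := fun x hx g =>
    (hC.commutator_le (Subgroup.commutator_mem_commutator hx (Subgroup.mem_top g))).2
  have hcZ : ∀ {x y : G}, x ∈ Z → y ∈ C → Commute x y := fun hx hy =>
    (Subgroup.mem_centralizer_iff.1 hx _ hy).symm
  -- the group `C`
  have hcen : ∀ x : C, x ∈ Subgroup.center C ↔ (x : G) ∈ Z := fun x => by
    rw [Subgroup.mem_center_iff, hZdef, Subgroup.mem_centralizer_iff]
    exact ⟨fun h y hy => congrArg Subtype.val (h ⟨y, hy⟩), fun h y => Subtype.ext (h y.1 y.2)⟩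
  have h2C : ∀ a b : C, ⁅a, b⁆ ∈ Subgroup.center C := fun a b => (hcen _).2 (hcomZ a.1 a.2 b.1)
  have hpC : ∀ a : C, a ^ p ∈ Subgroup.center C := fun a => (hcen _).2 (hpZ a.1 a.2)
  have hcomO : ∀ x ∈ C, ∀ y ∈ C, ⁅x, y⁆ ∈ O := fun x hx y hy => by
    refine mem_kill.2 ⟨hcomZ x hx y, ?_⟩
    let x' : C := ⟨x, hx⟩
    let y' : C := ⟨y, hy⟩
    have h := commutator_pow_left h2C x' y' p
    have h' : ⁅x' ^ p, y'⁆ = 1 := by
      rw [commutatorElement_eq_one_iff_mul_comm]
      exact ((Subgroup.mem_center_iff.1 (hpC x')) y').symm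
    rw [h'] at h
    exact congrArg Subtype.val h.symm
  have hlift : ∀ x ∈ C, ∃ w ∈ Z, (x * w) ^ p ∈ O := by
    intro x hx
    by_cases hbig : p ^ 2 ≤ Nat.card Z
    · have hcardC : Nat.card (Subgroup.center C) = Nat.card Z := Nat.card_congr
        { toFun := fun c => ⟨(c.1 : G), (hcen _).1 c.2⟩
          invFun := fun c => ⟨⟨c.1, hZC c.2⟩, (hcen _).2 c.2⟩
          left_inv := fun c => rfl
          right_inv := fun c => rfl }
      obtain ⟨w, hw, e⟩ := pow_eq_central (hG.to_subgroup C) (sym_subgroup hsym C hCc) hpC h2C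
        (hcardC ▸ hbig) ⟨x, hx⟩
      have hw' := (hcen w).1 hw
      refine ⟨(w : G)⁻¹, inv_mem hw', ?_⟩
      have e' : x ^ p = (w : G) ^ p := congrArg Subtype.val e
      rw [((hcZ (inv_mem hw') hx).symm).mul_pow, inv_pow, e', mul_inv_cancel]
      exact one_mem _
    · refine ⟨1, one_mem _, ?_⟩
      rw [mul_one]
      obtain ⟨j, hj⟩ := IsPGroup.iff_card.1 (hG.to_subgroup Z)
      rw [hj] at hbig
      have hj2 : j < 2 := by
        by_contra h
        exact hbig (Nat.pow_le_pow_right hp.out.pos (by omega))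
      refine mem_kill.2 ⟨hpZ x hx, ?_⟩
      have h1 := congrArg Subtype.val (pow_card_eq_one' (x := (⟨x ^ p, hpZ x hx⟩ : Z)))
      rw [hj] at h1
      interval_cases j
      · simp only [pow_zero, pow_one] at h1
        change x ^ p = 1 at h1
        rw [h1, one_pow]
      · simpa using h1
  -- a maximal subgroup of exponent `p` over `O` meeting `Z` in `O`
  obtain ⟨L, hLP, hmax⟩ := (Set.toFinite {L : Subgroup G | O ≤ L ∧ L ≤ C ∧ L ⊓ Z = O ∧
    ∀ x ∈ L, x ^ p ∈ O}).exists_maximal ⟨O, le_rfl, hOZ.trans hZC, inf_eq_left.2 hOZ, fun x hx => pow_mem hx p⟩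
  obtain ⟨hOL, hLC, hLZ, hLp⟩ := hLP
  have hprodpow : ∀ x ∈ C, ∀ y ∈ C, ∃ o ∈ O, (x * y) ^ p = x ^ p * y ^ p * o := by
    intro x hx y hy
    have h := congrArg Subtype.val (mul_pow_central (x := (⟨x, hx⟩ : C)) (y := ⟨y, hy⟩) (h2C _ _) p)
    exact ⟨⁅y, x⁆ ^ (p.choose 2), pow_mem (hcomO y hy x hx) _, h⟩
  have hLtop : C ≤ L ⊔ Z := by
    intro x hx
    by_contra hxn
    obtain ⟨w, hw, he⟩ := hlift x hx
    set e := x * w with hedef
    have heC : e ∈ C := mul_mem hx (hZC hw)
    have hen : e ∉ L ⊔ Z := fun h => hxn (by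
      have := mul_mem h (Subgroup.mem_sup_right (inv_mem hw))
      rwa [hedef, mul_inv_cancel_right] at this)
    set L' := L ⊔ Subgroup.zpowers e
    have hL'C : L' ≤ C := sup_le hLC (Subgroup.zpowers_le.2 heC)
    have hnorm : Subgroup.zpowers e ≤ Subgroup.normalizer (L : Set G) := by
      refine Subgroup.zpowers_le.2 (Subgroup.mem_normalizer_fintype fun l hl => ?_)
      have : e * l * e⁻¹ = ⁅e, l⁆ * l := by simp [commutatorElement_def, mul_assoc]
      rw [this]
      exact mul_mem (hOL (hcomO e heC l (hLC hl))) hl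
    have hform : ∀ y ∈ L', ∃ l ∈ L, ∃ i : ℤ, y = l * e ^ i := by
      intro y hy
      have : (y : G) ∈ ((L : Set G) * (Subgroup.zpowers e : Set G)) := by
        rw [← Subgroup.coe_mul_of_right_le_normalizer_left L _ hnorm]
        exact hy
      obtain ⟨l, hl, z, hz, rfl⟩ := this
      obtain ⟨i, rfl⟩ := Subgroup.mem_zpowers_iff.1 hz
      exact ⟨l, hl, i, rfl⟩
    have hep : ∀ i : ℤ, (e ^ i) ^ p = (e ^ p) ^ i := fun i => by
      rw [← zpow_natCast, ← zpow_natCast, ← zpow_mul, ← zpow_mul, mul_comm]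
    have hL' : L' ∈ {L : Subgroup G | O ≤ L ∧ L ≤ C ∧ L ⊓ Z = O ∧ ∀ x ∈ L, x ^ p ∈ O} := by
      refine ⟨hOL.trans le_sup_left, hL'C, le_antisymm ?_ (le_inf (hOL.trans le_sup_left) hOZ), ?_⟩
      · rintro y ⟨hy, hyZ⟩
        obtain ⟨l, hl, i, rfl⟩ := hform y hy
        have hei : e ^ i ∈ L ⊔ Z := by
          have := mul_mem (Subgroup.mem_sup_left (inv_mem hl) : l⁻¹ ∈ L ⊔ Z) (Subgroup.mem_sup_right hyZ)
          rwa [inv_mul_cancel_left] at this
        have hdvd : (p : ℤ) ∣ i := by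
          by_contra hnd
          obtain ⟨u, v, huv⟩ := ((Nat.prime_iff_prime_int.1 hp.out).coprime_iff_not_dvd.2 hnd)
          apply hen
          rw [← zpow_one e, ← huv, zpow_add, zpow_mul, zpow_natCast, mul_comm v i, zpow_mul]
          exact mul_mem (Subgroup.mem_sup_right (hpZ _ (zpow_mem heC u))) (zpow_mem hei v)
        obtain ⟨m, rfl⟩ := hdvd
        have heO : e ^ ((p : ℤ) * m) ∈ O := by rw [zpow_mul, zpow_natCast]; exact zpow_mem he m
        rw [← hLZ]
        exact ⟨mul_mem hl (hOL heO), hyZ⟩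
      · intro y hy
        obtain ⟨l, hl, i, rfl⟩ := hform y hy
        obtain ⟨o, ho, e'⟩ := hprodpow l (hLC hl) (e ^ i) (zpow_mem heC i)
        rw [e', hep]
        exact mul_mem (mul_mem (hLp l hl) (zpow_mem he i)) ho
    exact hen (Subgroup.mem_sup_left (hmax hL' le_sup_left (Subgroup.mem_sup_right (Subgroup.mem_zpowers e))))
  have hCeq : L ⊔ Z = C := le_antisymm (sup_le hLC hZC) hLtop
  -- centre of `L`
  have hLcen : ∀ x : L, x ∈ Subgroup.center L ↔ (x : G) ∈ O := by
    intro x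
    constructor
    · intro hx
      rw [← hLZ]
      exact ⟨x.2, Subgroup.mem_centralizer_iff.2 fun y hy => by
        rw [← hCeq] at hy
        have hle : L ⊔ Z ≤ Subgroup.centralizer ({(x : G)} : Set G) := sup_le
          (fun y hy => Subgroup.mem_centralizer_singleton_iff.2
            (congrArg Subtype.val (Subgroup.mem_center_iff.1 hx ⟨y, hy⟩)))
          (fun y hy => Subgroup.mem_centralizer_singleton_iff.2 (hcZ hy (hLC x.2)).eq)
        exact Subgroup.mem_centralizer_singleton_iff.1 (hle hy)⟩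
    · exact fun hx => Subgroup.mem_center_iff.2 fun y =>
        Subtype.ext (Subgroup.mem_center_iff.1 (hOcen hx) y.1)
  by_cases hL1 : L = O
  · refine ⟨C, Z, O, ⊥, ⊤, le_top, hOZ, hZc, hOn, hZcyc, hOcard, fun x => mem_kill, ?_, bot_sup_eq ⊤,
      Or.inl rfl, ?_, ?_, ?_, ?_, le_top⟩
    · intro e he r _
      rw [Subgroup.mem_bot.1 he, one_mul, mul_one]
    · intro e he
      rw [Subgroup.mem_bot.1 he, one_pow]; exact one_mem _
    · intro e he f _
      rw [Subgroup.mem_bot.1 he, commutatorElement_one_left]; exact one_mem _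
    · rw [inf_top_eq]
      have hCZ' : C = Z := by rw [← hCeq, hL1, sup_eq_right.2 hOZ]
      refine le_antisymm (fun g hg => ?_) (Subgroup.le_centralizer Z)
      rw [hZdef, hCZ']
      exact hg
    · rw [← hCeq, hL1, sup_eq_right.2 hOZ, bot_sup_eq]
  have hcardL : Nat.card (Subgroup.center L) = p := by
    rw [← hOcard]
    exact Nat.card_congr
      { toFun := fun c => ⟨(c.1 : G), (hLcen _).1 c.2⟩
        invFun := fun c => ⟨⟨c.1, hOL c.2⟩, (hLcen _).2 c.2⟩
        left_inv := fun c => rfl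
        right_inv := fun c => rfl }
  have hLex : Cfsg.IsExtraspecial p L := by
    refine isExtraspecial_of (hG.to_subgroup L) hcardL
      (fun a b => (hLcen _).2 (hcomO a.1 (hLC a.2) b.1 (hLC b.2)))
      (fun a => (hLcen _).2 (hLp a.1 a.2)) fun htop => hL1 (le_antisymm (fun x hx => ?_) hOL)
    exact (hLcen ⟨x, hx⟩).1 (by rw [htop]; trivial)
  have hLc : ⁅(⊤ : Subgroup G), L⁆ ≤ L ⊓ Subgroup.centralizer (L : Set G) := by
    rw [Subgroup.commutator_le]
    intro g _ e he
    suffices h : ⁅g, e⁆ ∈ O by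
      exact ⟨hOL h, Subgroup.center_le_centralizer _ (hOcen h)⟩
    have hcz : ⁅g, e⁆ ∈ Z := by
      rw [← commutatorElement_inv]; exact inv_mem (hcomZ e (hLC he) g)
    refine mem_kill.2 ⟨hcz, ?_⟩
    have h1 : (⁅g, e⁆ * e) ^ p = ⁅g, e⁆ ^ p * e ^ p := (hcZ hcz (hLC he)).mul_pow p
    have h2 : (⁅g, e⁆ * e) ^ p = e ^ p := by
      rw [show ⁅g, e⁆ * e = g * e * g⁻¹ by simp [commutatorElement_def, mul_assoc], conj_pow,
        Subgroup.mem_center_iff.1 (hOcen (hLp e he)) g, mul_inv_cancel_right]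
    exact mul_eq_right.1 (h1.symm.trans h2)
  refine ⟨C, Z, O, L, Subgroup.centralizer (L : Set G), ?_, hOZ, hZc, hOn, hZcyc, hOcard,
    fun x => mem_kill, fun e he r hr => Subgroup.mem_centralizer_iff.1 hr e he,
    CfsgLib.Extraspecial.sup_centralizer_eq_top hG L hLex hLc, Or.inr hLex, hLp,
    fun e he f hf => hcomO e (hLC he) f (hLC hf), ?_, hCeq.symm, le_rfl⟩
  · exact fun z hz => Subgroup.mem_centralizer_iff.2 fun y hy => ((hcZ hz (hLC hy)).eq).symm
  · refine le_antisymm (fun g hg => ?_) (fun z hz => ⟨Subgroup.le_centralizer Z hz,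
      Subgroup.mem_centralizer_iff.2 fun y hy => ((hcZ hz (hLC hy)).eq).symm⟩)
    rw [hZdef]
    refine Subgroup.mem_centralizer_iff.2 fun y hy => ?_
    rw [← hCeq] at hy
    have hle : L ⊔ Z ≤ Subgroup.centralizer ({g} : Set G) := sup_le
      (fun y hy => Subgroup.mem_centralizer_singleton_iff.2 (Subgroup.mem_centralizer_iff.1 hg.2 y hy))
      (fun y hy => Subgroup.mem_centralizer_singleton_iff.2 (Subgroup.mem_centralizer_iff.1 hg.1 y hy))
    exact Subgroup.mem_centralizer_singleton_iff.1 (hle hy)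

/-- `G / Z` with `Z` cyclic of order `p ^ 2` and self-centralising has order at most `p`. -/
theorem card_le_of_small (hG : IsPGroup p G) {R Z O : Subgroup G} [IsCyclic Z] (hZn : Z.Normal)
    (hZR : Z ≤ R) (hCR : Subgroup.centralizer (Z : Set G) ⊓ R = Z) (hO : ∀ x, x ∈ O ↔ x ∈ Z ∧ x ^ p = 1)
    (hOc : Nat.card O = p) (hOcen : O ≤ Subgroup.center G) (hZ : Nat.card Z = p ^ 2) :
    Nat.card R ≤ p ^ 3 := by
  obtain ⟨a, ha, hgen⟩ := exists_generator Z
  have haO : a ^ p ∈ O := by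
    refine (hO _).2 ⟨pow_mem ha p, ?_⟩
    rw [← pow_mul, ← sq, ← hZ]
    exact congrArg Subtype.val (pow_card_eq_one' (x := (⟨a, ha⟩ : Z)))
  have hmem : ∀ g : R, ⁅(g : G), a⁆ ∈ O := fun g => by
    have hz : ⁅(g : G), a⁆ ∈ Z := by
      rw [commutatorElement_def]
      exact mul_mem (hZn.conj_mem a ha g) (inv_mem ha)
    refine (hO _).2 ⟨hz, ?_⟩
    have hc : Commute ⁅(g : G), a⁆ a := by
      rw [hgen] at hz
      obtain ⟨i, hi⟩ := Subgroup.mem_zpowers_iff.1 hz
      rw [← hi]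
      exact (Commute.refl a).zpow_left i
    have h2 : (⁅(g : G), a⁆ * a) ^ p = a ^ p := by
      rw [show ⁅(g : G), a⁆ * a = g * a * (g : G)⁻¹ by simp [commutatorElement_def, mul_assoc], conj_pow,
        Subgroup.mem_center_iff.1 (hOcen haO) g, mul_inv_cancel_right]
    rw [hc.mul_pow] at h2
    exact mul_eq_right.1 h2
  let f : R →* O := MonoidHom.mk' (fun g => ⟨⁅(g : G), a⁆, hmem g⟩) fun g h => Subtype.ext (by
    change ⁅(g : G) * h, a⁆ = ⁅(g : G), a⁆ * ⁅(h : G), a⁆
    exact commutator_mul_left_central (hOcen (hmem h)))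
  have hker : f.ker ≤ Z.subgroupOf R := fun g hg => by
    have h1 : ⁅(g : G), a⁆ = 1 := congrArg Subtype.val (MonoidHom.mem_ker.1 hg)
    rw [Subgroup.mem_subgroupOf, ← hCR]
    refine ⟨?_, g.2⟩
    rw [hgen, Subgroup.zpowers_eq_closure, Subgroup.centralizer_closure]
    exact Subgroup.mem_centralizer_singleton_iff.2 (commutatorElement_eq_one_iff_mul_comm.1 h1)
  have hidx : f.ker.index ≤ p := by
    rw [Subgroup.index_ker, ← hOc]
    exact Subgroup.card_le_card_group _
  rw [← Subgroup.card_mul_index f.ker, show p ^ 3 = p ^ 2 * p by ring]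
  refine Nat.mul_le_mul ?_ hidx
  rw [← hZ, ← Nat.card_congr (Subgroup.subgroupOfEquivOfLe hZR).toEquiv]
  exact Subgroup.card_le_of_le hker

theorem isExtraspecial_congr {A B : Type*} [Group A] [Group B] [Finite A] {q : ℕ} [Fact q.Prime] (e : A ≃* B)
    (h : Cfsg.IsExtraspecial q A) : Cfsg.IsExtraspecial q B := by
  haveI : Finite B := Finite.of_equiv A e.toEquiv
  have hc : ∀ x, x ∈ Subgroup.center A → e x ∈ Subgroup.center B := fun x hx => Subgroup.mem_center_iff.2 fun y => by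
    obtain ⟨z, rfl⟩ := e.surjective y
    rw [← map_mul, ← map_mul, Subgroup.mem_center_iff.1 hx z]
  have hc' : ∀ x, e x ∈ Subgroup.center B → x ∈ Subgroup.center A := fun x hx => Subgroup.mem_center_iff.2 fun y =>
    e.injective (by rw [map_mul, map_mul, Subgroup.mem_center_iff.1 hx (e y)])
  refine isExtraspecial_of (h.1.1.of_equiv e) ?_ (fun a b => ?_) (fun x => ?_) fun htop => ?_
  · rw [← h.2]
    exact (Nat.card_congr (e.toEquiv.subtypeEquiv fun x => ⟨hc x, hc' x⟩)).symm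
  · obtain ⟨a, rfl⟩ := e.surjective a
    obtain ⟨b, rfl⟩ := e.surjective b
    rw [← map_commutatorElement]
    exact hc _ (CfsgLib.Extraspecial.commutator_mem_center h a b)
  · obtain ⟨x, rfl⟩ := e.surjective x
    rw [← map_pow]
    exact hc _ (CfsgLib.Extraspecial.pow_mem_center h x)
  · exact CfsgLib.Extraspecial.center_ne_top h ((Subgroup.eq_top_iff' _).2 fun x => hc' x (htop ▸ Subgroup.mem_top _))

end CfsgLib.SymplecticHall
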